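import Cfsg.Prelude.Def_Blocks
import Cfsg.Agent.H1.DegCount

/-!
# Counting irreducible characters by (natural number) degree
-/

set_option autoImplicit false

namespace Cfsg.Agent.H1

open Cfsg Module
open scoped ComplexConjugate

section gen

variable {G : Type*} [Group G]

/-- the degree of an irreducible character -/
noncomputable def dg (χ : IrrCharacter G) : ℕ := charDegree (χ : G → ℂ)

theorem dg_of_eq {χ : IrrCharacter G} {n : ℕ} (h : (χ : G → ℂ) 1 = n) : dg χ = n := by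
  simp [dg, charDegree, h]

theorem dg_spec (χ : IrrCharacter G) : (χ : G → ℂ) 1 = dg χ := by
  obtain ⟨n, -, h⟩ := IsIrrCharacter.exists_one_eq χ.2
  rw [dg_of_eq h, h]

theorem dg_pos (χ : IrrCharacter G) : 0 < dg χ := by
  obtain ⟨n, h0, h⟩ := IsIrrCharacter.exists_one_eq χ.2
  rwa [dg_of_eq h]

theorem dg_eq_iff {χ : IrrCharacter G} {n : ℕ} : dg χ = n ↔ (χ : G → ℂ) 1 = n := by
  rw [dg_spec, Nat.cast_inj]

/-- number of irreducible characters whose degree satisfies `P` -/
noncomputable def cnt (G : Type*) [Group G] (P : ℕ → Prop) : ℕ :=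
  Nat.card {χ : IrrCharacter G // P (dg χ)}

theorem cnt_congr {P P' : ℕ → Prop} (h : ∀ χ : IrrCharacter G, P (dg χ) ↔ P' (dg χ)) :
    cnt G P = cnt G P' :=
  Nat.card_congr (Equiv.subtypeEquivRight h)

theorem cnt_eq_card (d : ℕ) :
    cnt G (· = d) = Nat.card {χ : IrrCharacter G // (χ : G → ℂ) 1 = d} :=
  Nat.card_congr (Equiv.subtypeEquivRight fun _ => dg_eq_iff)

theorem cnt_le_of_surj {H : Type*} [Group H] [Finite G] (φ : G →* H) (hφ : Function.Surjective φ)
    (P : ℕ → Prop) : cnt H P ≤ cnt G P := by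
  refine Nat.card_le_card_of_injective
    (fun χ => ⟨⟨fun x => χ.1.1 (φ x), IsIrrCharacter.comp_of_surjective χ.1.2 φ hφ⟩, ?_⟩) ?_
  · have : dg (⟨fun x => χ.1.1 (φ x), IsIrrCharacter.comp_of_surjective χ.1.2 φ hφ⟩ :
        IrrCharacter G) = dg χ.1 := dg_of_eq (by simp only [map_one]; exact dg_spec _)
    rw [this]; exact χ.2
  · intro a b h
    refine Subtype.ext (Subtype.ext (funext fun y => ?_))
    obtain ⟨x, rfl⟩ := hφ y
    exact congrFun (congrArg (fun z => z.1.1) h) x

theorem cnt_equiv {H : Type*} [Group H] [Finite G] (e : G ≃* H) (P : ℕ → Prop) :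
    cnt G P = cnt H P := by
  have : Finite H := Finite.of_equiv _ e.toEquiv
  exact le_antisymm (cnt_le_of_surj e.symm.toMonoidHom e.symm.surjective P)
    (cnt_le_of_surj e.toMonoidHom e.surjective P)

theorem cnt_of_all [Finite G] {P : ℕ → Prop} (h : ∀ χ : IrrCharacter G, P (dg χ)) :
    cnt G P = Nat.card (ConjClasses G) := by
  have := Fintype.ofFinite G
  rw [← card_irr_eq_card_conjClasses]
  exact Nat.card_congr (Equiv.subtypeUnivEquiv h)

theorem cnt_add_cnt_not [Finite G] (P : ℕ → Prop) :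
    cnt G P + cnt G (fun d => ¬ P d) = Nat.card (ConjClasses G) := by
  classical
  have := Fintype.ofFinite G
  rw [← card_irr_eq_card_conjClasses, cnt, cnt, ← Nat.card_sum]
  exact Nat.card_congr (Equiv.sumCompl _)

theorem sum_dg_sq [Finite G] : ∑ χ : IrrCharacter G, dg χ ^ 2 = Nat.card G := by
  have := Fintype.ofFinite G
  apply Nat.cast_injective (R := ℂ)
  rw [← sum_sq_degree]
  push_cast
  exact Finset.sum_congr rfl fun χ _ => by rw [dg_spec]

theorem dg_sq_le [Finite G] (χ : IrrCharacter G) : dg χ ^ 2 ≤ Nat.card G := by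
  rw [← sum_dg_sq]
  exact Finset.single_le_sum (f := fun χ : IrrCharacter G => dg χ ^ 2) (fun _ _ => Nat.zero_le _)
    (Finset.mem_univ χ)

theorem sum_by_dg [Finite G] (D : Finset ℕ) (hD : ∀ χ : IrrCharacter G, dg χ ∈ D) (f : ℕ → ℕ) :
    ∑ χ : IrrCharacter G, f (dg χ) = ∑ d ∈ D, cnt G (· = d) * f d := by
  classical
  rw [← Finset.sum_fiberwise_of_maps_to (s := Finset.univ) (t := D) (g := dg) (fun χ _ => hD χ)]
  refine Finset.sum_congr rfl (fun d _ => ?_)
  rw [Finset.sum_congr rfl (g := fun _ => f d)]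
  · simp [cnt, Fintype.card_subtype]
  · intro χ hχ
    rw [(Finset.mem_filter.mp hχ).2]

open Classical in
theorem cnt_eq_sum_ite [Finite G] (P : ℕ → Prop) :
    cnt G P = ∑ χ : IrrCharacter G, if P (dg χ) then 1 else 0 := by
  simp [cnt, Fintype.card_subtype]

open Classical in
theorem cnt_by_dg [Finite G] (D : Finset ℕ) (hD : ∀ χ : IrrCharacter G, dg χ ∈ D) (P : ℕ → Prop) :
    cnt G P = ∑ d ∈ D, cnt G (· = d) * if P d then 1 else 0 := by
  rw [cnt_eq_sum_ite, sum_by_dg D hD (fun d => if P d then 1 else 0)]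

theorem dg_le_index [Finite G] (A : Subgroup G) (hA : ∀ x ∈ A, ∀ y ∈ A, x * y = y * x)
    (χ : IrrCharacter G) : dg χ ≤ A.index := by
  classical
  have := Fintype.ofFinite G
  have : IsMulCommutative A := ⟨⟨fun x y => Subtype.ext (hA _ x.2 _ y.2)⟩⟩
  have h1 : IsCharacter A (fun x : A => (χ : G → ℂ) (A.subtype x)) :=
    IsCharacter.comp (IsIrrCharacter.isCharacter χ.2) A.subtype
  obtain ⟨θ, hθ, h2⟩ := IsCharacter.exists_constituent h1 (fun h => IsIrrCharacter.one_ne_zero χ.2 (by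
    simpa using congrFun h 1))
  obtain ⟨l, rfl⟩ := IsIrrCharacter.exists_hom_of_comm hθ
  have h3 : IsCharacter G (indFun A l) := IsCharacter.indFun A (isCharacter_hom l)
  have h4 : classInner (indFun A l) (χ : G → ℂ) ≠ 0 := by
    rw [classInner_indFun A _ (IsCharacter.isClassFunction (IsIrrCharacter.isCharacter χ.2))]
    rw [← IsCharacter.classInner_comm (isCharacter_hom l) h1] at h2
    exact h2
  have h5 := IsCharacter.degree_le_of_constituent h3 χ.2 h4
  rw [indFun_one, map_one, mul_one, dg_spec] at h5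
  exact_mod_cast h5

theorem dg_eq_one_of_comm [IsMulCommutative G] (χ : IrrCharacter G) : dg χ = 1 := by
  obtain ⟨l, h⟩ := IsIrrCharacter.exists_hom_of_comm χ.2
  exact dg_of_eq (by rw [h]; simp)

theorem cnt_one_of_comm [Finite G] [IsMulCommutative G] : cnt G (· = 1) = Nat.card G := by
  classical
  rw [← sum_dg_sq, cnt_eq_sum_ite]
  exact Finset.sum_congr rfl fun χ _ => by simp [dg_eq_one_of_comm]

theorem cnt_one_le_of_ker [Finite G] (K : Subgroup G) [K.Normal]
    (h : ∀ l : G →* ℂ, ∀ g ∈ K, l g = 1) : cnt G (· = 1) ≤ cnt (G ⧸ K) (· = 1) := by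
  refine Nat.card_le_card_of_surjective
    (fun χ => ⟨⟨fun x => χ.1.1 (QuotientGroup.mk' K x),
      IsIrrCharacter.comp_of_surjective χ.1.2 _ (QuotientGroup.mk'_surjective K)⟩, ?_⟩) ?_
  · exact dg_eq_iff.2 (by simp only [map_one]; exact dg_eq_iff.1 χ.2)
  · rintro ⟨χ, hχ⟩
    obtain ⟨l, hl⟩ := IsCharacter.exists_hom_of_one_eq_one (IsIrrCharacter.isCharacter χ.2)
      (by simpa using dg_eq_iff.1 hχ)
    refine ⟨⟨⟨QuotientGroup.lift K l (fun g hg => h l g hg), isIrrCharacter_hom _⟩,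
      dg_eq_iff.2 (by simp)⟩, Subtype.ext (Subtype.ext ?_)⟩
    rw [hl]
    rfl

/-- a group with an abelian subgroup of index two: three times the number of linear characters -/
theorem cnt_one_of_index_two [Finite G] (T : Subgroup G) (hi : T.index = 2)
    (hc : ∀ x ∈ T, ∀ y ∈ T, x * y = y * x) :
    3 * cnt G (fun d => ¬ 2 ∣ d) + Nat.card G = 4 * Nat.card (ConjClasses G) := by
  classical
  have hD : ∀ χ : IrrCharacter G, dg χ ∈ ({1, 2} : Finset ℕ) := fun χ => by
    have h1 := dg_le_index T hc χ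
    have h2 := dg_pos χ
    simp only [Finset.mem_insert, Finset.mem_singleton]
    omega
  have e1 := cnt_by_dg _ hD (fun d => ¬ 2 ∣ d)
  have e2 := sum_by_dg _ hD (fun d => d ^ 2)
  have e3 := cnt_by_dg _ hD (fun _ => True)
  rw [cnt_of_all (fun _ => trivial)] at e3
  rw [sum_dg_sq] at e2
  simp at e1 e2 e3
  simp only [Nat.two_dvd_ne_zero]
  omega

/-- a group of order 24 with exactly three linear characters -/
theorem cnt_odd_of_card_24 [Finite G] (hc : Nat.card G = 24) (h1 : cnt G (· = 1) = 3) :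
    cnt G (fun d => ¬ 2 ∣ d) = 4 := by
  classical
  have hD : ∀ χ : IrrCharacter G, dg χ ∈ ({1, 2, 3, 4} : Finset ℕ) := fun χ => by
    have h1 := dg_sq_le χ
    have h2 := dg_pos χ
    have h3 : dg χ ≤ 4 := by nlinarith
    simp only [Finset.mem_insert, Finset.mem_singleton]
    omega
  have e1 := cnt_by_dg _ hD (fun d => ¬ 2 ∣ d)
  have e2 := sum_by_dg _ hD (fun d => d ^ 2)
  rw [sum_dg_sq] at e2
  simp at e1 e2
  simp only [Nat.two_dvd_ne_zero]
  omega

/-- a counting criterion: all non-linear degrees are maximal -/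
theorem dg_eq_of_count [Finite G] {a b m : ℕ} (hk : Nat.card (ConjClasses G) = a + b)
    (hl : a ≤ cnt G (· = 1)) (hm : ∀ χ : IrrCharacter G, dg χ ≤ m)
    (hG : Nat.card G = a + b * m ^ 2) (χ : IrrCharacter G) : dg χ = 1 ∨ dg χ = m := by
  classical
  by_contra hc
  push Not at hc
  have e1 := cnt_add_cnt_not (G := G) (· = 1)
  have e2 := sum_dg_sq (G := G)
  have e3 : ∑ χ : IrrCharacter G, dg χ ^ 2 <
      ∑ χ : IrrCharacter G, (if dg χ = 1 then 1 else m ^ 2) := by
    refine Finset.sum_lt_sum (fun ψ _ => ?_) ⟨χ, Finset.mem_univ _, ?_⟩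
    · split_ifs with h
      · simp [h]
      · exact Nat.pow_le_pow_left (hm ψ) 2
    · rw [if_neg hc.1]
      exact Nat.pow_lt_pow_left (lt_of_le_of_ne (hm χ) hc.2) two_ne_zero
  have e4 : ∑ χ : IrrCharacter G, (if dg χ = 1 then 1 else m ^ 2) =
      cnt G (· = 1) + cnt G (fun d => ¬ d = 1) * m ^ 2 := by
    rw [cnt_eq_sum_ite, cnt_eq_sum_ite, Finset.sum_mul, ← Finset.sum_add_distrib]
    refine Finset.sum_congr rfl fun ψ _ => ?_
    by_cases h : dg ψ = 1 <;> simp [h]
  have h1 : 1 ≤ m := (dg_pos χ).trans_le (hm χ)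
  have h2 : 1 ≤ m ^ 2 := Nat.one_le_pow _ _ h1
  rw [e4, e2, hG] at e3
  rw [hk] at e1
  obtain ⟨c, hc⟩ := Nat.exists_eq_add_of_le hl
  have : b = c + cnt G (fun d => ¬ d = 1) := by omega
  rw [this, hc] at e3
  nlinarith

end gen

end Cfsg.Agent.H1
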