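import Cfsg.Agent.H1.SL2Table

/-!
# The non-split torus of `SL₂`
-/

set_option autoImplicit false
set_option linter.unusedSectionVars false

namespace Cfsg.Agent.H1

open Cfsg Module Cfsg.Agent.H2 Matrix
open scoped ComplexConjugate MatrixGroups

/-- extension of a character along an injective homomorphism of finite abelian groups -/
theorem exists_extend_hom {A B : Type*} [Group A] [CommGroup B] [Finite B] (j : A →* B)
    (hj : Function.Injective j) (θ : A →* ℂˣ) : ∃ φ : B →* ℂˣ, ∀ a, φ (j a) = θ a := by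
  have : NeZero (Monoid.exponent B) := ⟨Monoid.exponent_ne_zero_of_finite⟩
  obtain ⟨φ, hφ⟩ := MonoidHom.domRestrict_surjective ℂ j.range
    (θ.comp (MonoidHom.ofInjective hj).symm.toMonoidHom)
  refine ⟨φ, fun a => ?_⟩
  have := DFunLike.congr_fun hφ (MonoidHom.ofInjective hj a)
  simp only [MonoidHom.domRestrictHom_apply, MonoidHom.domRestrict_apply, MonoidHom.comp_apply,
    MulEquiv.coe_toMonoidHom, MulEquiv.symm_apply_apply] at this
  exact this

variable {F : Type*} [Field F] [Fintype F] [DecidableEq F]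
variable {E : Type*} [Field E] [Fintype E] [DecidableEq E] [Algebra F E] (Q : QuadEmb F E)

include Q in
theorem exists_pow_sub_one_of_norm_one {ξ : E} (h : ξ ^ (Fintype.card F + 1) = 1) :
    ∃ ζ : E, ζ ≠ 0 ∧ ξ = ζ ^ (Fintype.card F - 1) := by
  have hq := Fintype.one_lt_card (α := F)
  have h0 : ξ ≠ 0 := by rintro rfl; simp at h
  obtain ⟨g, hg⟩ := IsCyclic.exists_generator (α := Eˣ)
  obtain ⟨k, hk⟩ := (mem_powers_iff_mem_zpowers.mpr (hg (Units.mk0 ξ h0)))
  have ho : orderOf g = (Fintype.card F - 1) * (Fintype.card F + 1) := by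
    rw [orderOf_eq_card_of_forall_mem_zpowers hg, Nat.card_units, Nat.card_eq_fintype_card,
      Q.card_E, ← one_pow 2, Nat.sq_sub_sq, one_pow, mul_comm]
  have h1 : g ^ (k * (Fintype.card F + 1)) = 1 := by
    rw [pow_mul]
    simp only at hk
    rw [hk]
    ext
    simpa using h
  have h2 := orderOf_dvd_of_pow_eq_one h1
  rw [ho] at h2
  obtain ⟨m, rfl⟩ := Nat.dvd_of_mul_dvd_mul_right (by omega) h2
  refine ⟨(g ^ m : Eˣ), Units.ne_zero _, ?_⟩
  have := congrArg Units.val hk
  simp only [Units.val_mk0] at this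
  rw [← this, mul_comm, pow_mul, Units.val_pow_eq_pow_val]

theorem norm_one_of_det {ξ : E} (h : (Q.ι ξ).det = 1) : ξ ^ (Fintype.card F + 1) = 1 := by
  rw [← Q.det_eq, h, map_one]

include Q in
theorem two_ne_zero_ext (h2 : (2 : F) ≠ 0) : (2 : E) ≠ 0 := by
  intro h
  apply h2
  apply (algebraMap F E).injective
  rw [map_zero, map_ofNat, h]

/-- conjugating the embedding -/
noncomputable def QuadEmb.conj (x : GL (Fin 2) F) : QuadEmb F E where
  ι :=
    { toFun := fun ξ => x.1 * Q.ι ξ * x⁻¹.1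
      map_one' := by simp
      map_mul' := fun a b => by
        simp only [map_mul, Matrix.mul_assoc, Units.inv_mul_cancel_left]
      map_zero' := by simp
      map_add' := fun a b => by simp [Matrix.mul_add, Matrix.add_mul]
      commutes' := fun a => by
        rw [Q.ι_algebraMap, Algebra.algebraMap_eq_smul_one]
        simp }
  rank := Q.rank

include Q in
/-- an elliptic element lies in the image of a suitable embedding -/
theorem exists_quadEmb_eq {g : GL (Fin 2) F}
    (h : ∀ x : F, x ^ 2 - g.1.trace * x + g.1.det ≠ 0) :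
    ∃ (Q' : QuadEmb F E) (ξ : Eˣ), Q'.ιu ξ = g := by
  obtain ⟨ξ, h1, h2, h3⟩ := Q.exists_of_no_root h
  have h0 : ξ ≠ 0 := by rintro rfl; simp [IsScal] at h1
  obtain ⟨x, hx⟩ := isConj_iff.mp (isConj_GL_of (g := Q.ιu (Units.mk0 ξ h0)) h1
    (not_isScal_of_no_root h) h2 h3)
  exact ⟨Q.conj x, Units.mk0 ξ h0, by rw [← hx]; exact Units.ext rfl⟩

theorem cusp_ell' (θ : MulChar E ℂ) {ξ : Eˣ} (hξ : ¬ IsScal (Q.ι ξ)) (hd : (Q.ι ξ).det = 1) :
    cusp Q θ (Q.ιu ξ) = -(θ ξ + (θ ξ)⁻¹) := by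
  rw [cusp_ell Q θ hξ rfl rfl, ← mulChar_inv]
  congr 3
  have := norm_one_of_det Q hd
  rw [pow_succ] at this
  exact eq_inv_of_mul_eq_one_left this

/-- for the field with three elements the faithful cuspidal character vanishes on elements
of order four -/
theorem cusp_ell_three (hq : Fintype.card F = 3) {θ : MulChar E ℂ}
    (hθ : (θ ^ (Fintype.card F - 1)) ^ 2 ≠ 1) {g : SL(2, F)}
    (h : ∀ x : F, x ^ 2 - g.1.trace * x + g.1.det ≠ 0) : cusp Q θ (sl2gl g) = 0 := by
  obtain ⟨ξ, h1, h2, h3⟩ := Q.exists_of_no_root h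
  rw [cusp_ell Q θ h1 h2 h3]
  have h4 := norm_one_of_det Q (h3.trans g.2)
  rw [hq] at h4 hθ ⊢
  have h5 : ξ ^ 2 = -1 := by
    have : (ξ ^ 2 - 1) * (ξ ^ 2 + 1) = 0 := by linear_combination h4
    rcases mul_eq_zero.mp this with h6 | h6
    · exfalso
      apply h1
      rw [Q.isScal_iff']
      have : (ξ - 1) * (ξ + 1) = 0 := by linear_combination h6
      rcases mul_eq_zero.mp this with h7 | h7
      · exact ⟨1, by rw [map_one]; linear_combination h7⟩
      · exact ⟨-1, by rw [map_neg, map_one]; linear_combination h7⟩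
    · linear_combination h6
  have h6 : θ (-1) = -1 := by
    have : θ (-1) * θ (-1) = 1 := by rw [← map_mul]; simp
    rcases mul_self_eq_one_iff.mp this with h7 | h7
    · exfalso
      apply hθ
      apply MulChar.ext
      intro a
      have h8 : (a : E) ^ (Fintype.card E - 1) = 1 :=
        FiniteField.pow_card_sub_one_eq_one _ a.ne_zero
      rw [Q.card_E, hq] at h8
      have h9 : (a : E) ^ 4 * (a : E) ^ 4 = 1 := by rw [← h8]; ring
      rw [← pow_mul, MulChar.pow_apply_coe, ← map_pow, MulChar.one_apply_coe]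
      rcases mul_self_eq_one_iff.mp h9 with h10 | h10
      · rw [show (3 - 1) * 2 = 4 by norm_num, h10, map_one]
      · rw [show (3 - 1) * 2 = 4 by norm_num, h10, h7]
    · exact h7
  rw [show ξ ^ 3 = -1 * ξ by linear_combination ξ * h5, map_mul, h6]
  ring

theorem sq_eq_one_of_card_three (hq : Fintype.card F = 3) {a : F} (ha : a ≠ 0) : a ^ 2 = 1 := by
  have := FiniteField.pow_card_sub_one_eq_one a ha
  rwa [hq] at this

/-- the value of the half discrete series at an elliptic element -/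
theorem IsHalf.cusp_ell {θ : MulChar E ℂ} {χ : SL(2, F) → ℂ} (h : IsHalf (cusp Q θ) χ)
    (h2 : (2 : F) ≠ 0) (h3 : (θ ^ (Fintype.card F - 1)) ^ 2 = 1)
    (h4 : θ ^ (Fintype.card F - 1) ≠ 1) {g : SL(2, F)}
    (hg : ∀ x : F, x ^ 2 - g.1.trace * x + g.1.det ≠ 0) :
    (g.1 ^ ((Fintype.card F + 1) / 2) = 1 → χ g = -1) ∧
      (g.1 ^ ((Fintype.card F + 1) / 2) ≠ 1 → χ g = 1) := by
  have hq := Fintype.one_lt_card (α := F)
  have hodd := odd_card_of_two_ne_zero h2
  rw [Nat.card_eq_fintype_card] at hodd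
  obtain ⟨ξ, h5, h6, h7⟩ := Q.exists_of_no_root hg
  have h0 : ξ ≠ 0 := by rintro rfl; simp [IsScal] at h5
  obtain ⟨x, hx⟩ := isConj_iff.mp (isConj_GL_of (g := Q.ιu (Units.mk0 ξ h0)) (h := sl2gl g) h5
    (not_isScal_of_no_root hg) h6 h7)
  have hpow : g.1 ^ ((Fintype.card F + 1) / 2) = 1 ↔ ξ ^ ((Fintype.card F + 1) / 2) = 1 := by
    have : g.1 ^ ((Fintype.card F + 1) / 2) = 1 ↔ (sl2gl g) ^ ((Fintype.card F + 1) / 2) = 1 := by
      rw [← Units.val_inj]; rfl
    rw [this, ← hx, conj_pow, conj_eq_one_iff, ← map_pow, map_eq_one_iff _ Q.ιu_injective,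
      ← Units.val_inj]
    simp
  obtain ⟨ζ, hζ, rfl⟩ := exists_pow_sub_one_of_norm_one Q (norm_one_of_det Q (h7.trans g.2))
  have he := eq_eta (two_ne_zero_ext Q h2) h3 h4
  have hv : θ (ζ ^ (Fintype.card F - 1)) = eta E ζ := by
    rw [← he, MulChar.pow_apply' _ (by omega), map_pow]
  have hsq : eta E ζ ^ 2 = 1 := by
    rw [← MulChar.pow_apply' _ two_ne_zero, eta_sq, mulChar_one_apply hζ]
  have hval : χ g = - eta E ζ := by
    rw [h.apply g (Or.inr (trace_sq_ne_of_no_root h2 hg)), H1.cusp_ell Q θ h5 h6 h7, map_pow θ _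
      (Fintype.card F), hv]
    rw [show Fintype.card F = 2 * (Fintype.card F / 2) + 1 by omega, pow_succ, pow_mul, hsq]
    ring
  have hchar : ringChar E ≠ 2 := ringChar_ne_two_of (two_ne_zero_ext Q h2)
  have hexp : (Fintype.card F - 1) * ((Fintype.card F + 1) / 2) = Fintype.card E / 2 := by
    rw [Q.card_E]
    obtain ⟨k, hk⟩ : ∃ k, Fintype.card F = 2 * k + 1 := ⟨Fintype.card F / 2, by omega⟩
    rw [hk, show (2 * k + 1 + 1) / 2 = k + 1 by omega, show 2 * k + 1 - 1 = 2 * k by omega,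
      show (2 * k + 1) ^ 2 = 2 * (2 * k * (k + 1)) + 1 by ring]
    omega
  rw [hpow, ← pow_mul, hexp, ← FiniteField.isSquare_iff hchar hζ, hval]
  refine ⟨fun hs => ?_, fun hs => ?_⟩
  · rw [eta_of_isSquare hζ hs]
  · rw [eta_of_not_isSquare (by rwa [Ne, hpow, ← pow_mul, hexp,
      ← FiniteField.isSquare_iff hchar hζ] at hs), neg_neg]

end Cfsg.Agent.H1
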