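import Cfsg.Agent.H1.McK
import Cfsg.Agent.S2299
import Cfsg.Agent.S2437
import Cfsg.Agent.H2.SL2Sol

/-!
# The McKay counts for `SL₂(q)`, `q` odd
-/

set_option autoImplicit false
set_option linter.unusedSectionVars false

namespace Cfsg.Agent.H1

open Cfsg Module Cfsg.Agent.H2 Matrix
open scoped MatrixGroups

variable {F : Type*} [Field F] [Fintype F]

open Classical in
theorem cnt_SL2 {m : ℕ} (hq : Fintype.card F = 2 * m + 1) (hm : 2 ≤ m) (P : ℕ → Prop) :
    cnt SL(2, F) P = (if P 1 then 1 else 0) + (if P (2 * m + 1) then 1 else 0) +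
      (m - 1) * (if P (2 * m + 2) then 1 else 0) + m * (if P (2 * m) then 1 else 0) +
      2 * (if P (m + 1) then 1 else 0) + 2 * (if P m then 1 else 0) := by
  obtain ⟨h1, h2⟩ := S2299.result (F := F) ⟨m, hq⟩
  obtain ⟨c1, c2, c3, c4, c5, c6⟩ := h2 (by omega)
  rw [hq] at h1 c2 c3 c4 c5 c6
  rw [show (2 * m + 1 + 1) / 2 = m + 1 by omega] at h1 c5
  rw [show (2 * m + 1 - 1) / 2 = m by omega] at h1 c6 c4
  rw [show (2 * m + 1 - 3) / 2 = m - 1 by omega] at c3
  rw [show ((2 * m + 1 : ℕ) : ℂ) + 1 = ((2 * m + 2 : ℕ) : ℂ) by push_cast; ring] at h1 c3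
  rw [show ((2 * m + 1 : ℕ) : ℂ) - 1 = ((2 * m : ℕ) : ℂ) by push_cast; ring] at h1 c4
  rw [← cnt_eq_card] at c2 c3 c4 c5 c6
  have c1' : cnt SL(2, F) (· = 1) = 1 := by rw [cnt_eq_card, Nat.cast_one, c1]
  have hD : ∀ χ : IrrCharacter SL(2, F),
      dg χ ∈ ({1, 2 * m + 1, 2 * m + 2, 2 * m, m + 1, m} : Finset ℕ) := fun χ => by
    simp only [Finset.mem_insert, Finset.mem_singleton, dg_eq_iff, Nat.cast_one]
    exact h1 χ χ.2
  rw [cnt_by_dg _ hD P, Finset.sum_insert, Finset.sum_insert, Finset.sum_insert, Finset.sum_insert,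
    Finset.sum_insert, Finset.sum_singleton, c1', c2, c3, c4, c5, c6]
  · ring
  all_goals
    simp only [Finset.mem_insert, Finset.mem_singleton, not_or]
    omega

theorem cnt_SL2_char (hodd : Odd (Fintype.card F)) {l : ℕ} (hl : l.Prime)
    (h : l ∣ Fintype.card F) : cnt SL(2, F) (fun d => ¬ l ∣ d) = Fintype.card F + 3 := by
  classical
  obtain ⟨E, _, _, _, ⟨Q⟩⟩ := exists_quadEmb F
  have h2 := two_ne_zero_of_odd hodd
  have e1 := cnt_add_cnt_not (G := SL(2, F)) (fun d => l ∣ d)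
  have c2 := card_degree_eq_one (Fintype.card F) (isIrr_resSL_st (F := F) 1)
    (by rw [resSL_one, st_one]) (fun χ hχ hd => irr_SL2_deg_q Q hχ hd)
  rw [← cnt_eq_card] at c2
  have e2 : cnt SL(2, F) (fun d => l ∣ d) = cnt SL(2, F) (· = Fintype.card F) := by
    refine cnt_congr fun χ => ⟨fun hd => ?_, fun hd => hd ▸ h⟩
    obtain ⟨h1, -⟩ := S2299.result (F := F) hodd
    obtain ⟨m, hq⟩ := hodd
    have h3 := h1 χ χ.2
    rw [hq] at h3 h ⊢
    rw [show (2 * m + 1 + 1) / 2 = m + 1 by omega, show (2 * m + 1 - 1) / 2 = m by omega,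
      show ((2 * m + 1 : ℕ) : ℂ) + 1 = ((2 * m + 2 : ℕ) : ℂ) by push_cast; ring,
      show ((2 * m + 1 : ℕ) : ℂ) - 1 = ((2 * m : ℕ) : ℂ) by push_cast; ring,
      ← Nat.cast_one (R := ℂ)] at h3
    simp only [← dg_eq_iff] at h3
    have k : ∀ a b : ℕ, l ∣ a → l ∣ b → a = b + 1 → False := fun a b ha hb e =>
      hl.one_lt.ne' (Nat.dvd_one.1 ((Nat.dvd_add_right hb).1 (e ▸ ha)))
    rcases h3 with h3 | h3 | h3 | h3 | h3 | h3
    · exact (k _ 0 hd (dvd_zero _) h3).elim
    · exact h3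
    · exact (k _ _ hd h h3).elim
    · exact (k _ _ h hd (by omega)).elim
    · exact (k _ _ (hd.mul_left 2) h (by omega)).elim
    · exact (k _ _ h (hd.mul_left 2) (by omega)).elim
  rw [e2, c2, card_conjClasses_SL2_odd h2, Nat.card_eq_fintype_card] at e1
  omega

/-- the Borel subgroup -/
abbrev borel2 (F : Type*) [Field F] : Subgroup SL(2, F) :=
  (upperTriangularGL 2 F).comap (Matrix.SpecialLinearGroup.toGL (n := Fin 2) (R := F))

theorem mem_borel2 {g : SL(2, F)} : g ∈ borel2 F ↔ g.1 1 0 = 0 := by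
  constructor
  · intro h; exact h (show (0 : Fin 2) < 1 by decide)
  · intro h i j hij
    fin_cases i <;> fin_cases j <;> simp_all

theorem borel2_det (g : borel2 F) : g.1.1 0 0 * g.1.1 1 1 = 1 := by
  have := g.1.det_coe
  rwa [Matrix.det_fin_two, mem_borel2.1 g.2, mul_zero, sub_zero] at this

theorem card_borel2 : Nat.card (borel2 F) = (Nat.card F - 1) * Nat.card F := by
  let f : Fˣ × F → borel2 F := fun s =>
    ⟨toSL !![(s.1 : F), s.2; 0, (s.1 : F)⁻¹] (by simp [Matrix.det_fin_two_of]), mem_borel2.2 rfl⟩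
  have hf : Function.Bijective f := by
    constructor
    · rintro ⟨a, b⟩ ⟨c, d⟩ h
      have h1 := congrArg (fun g : borel2 F => g.1.1 0 0) h
      have h3 := congrArg (fun g : borel2 F => g.1.1 0 1) h
      exact Prod.ext (Units.ext h1) h3
    · intro g
      refine ⟨(Units.mk0 (g.1.1 0 0) (left_ne_zero_of_mul_eq_one (borel2_det g)), g.1.1 0 1),
        Subtype.ext (SL_ext ?_)⟩
      exact m2_ext rfl rfl (mem_borel2.1 g.2).symm (inv_eq_of_mul_eq_one_right (borel2_det g))
  rw [← Nat.card_eq_of_bijective f hf, Nat.card_prod, Nat.card_units]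

/-- the diagonal entry -/
noncomputable def borel2Hom : borel2 F →* Fˣ where
  toFun g := Units.mk0 (g.1.1 0 0) (left_ne_zero_of_mul_eq_one (borel2_det g))
  map_one' := Units.ext (by simp)
  map_mul' a b := Units.ext (by
    simp [Matrix.SpecialLinearGroup.coe_mul, m2_mul_apply, mem_borel2.1 b.2])

theorem borel2Hom_surjective : Function.Surjective (borel2Hom (F := F)) := fun a =>
  ⟨⟨toSL !![(a : F), 0; 0, (a : F)⁻¹] (by simp [Matrix.det_fin_two_of]), mem_borel2.2 rfl⟩,
    Units.ext rfl⟩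

theorem cnt_borel2 (hodd : Odd (Fintype.card F)) {l : ℕ} (hl : l.Prime)
    (h : l ∣ Fintype.card F) : cnt (borel2 F) (fun d => ¬ l ∣ d) = Fintype.card F + 3 := by
  classical
  have h2 := two_ne_zero_of_odd hodd
  have hk : Nat.card (ConjClasses (borel2 F)) = Fintype.card F + 3 := S2437.result hodd
  obtain ⟨m, hq⟩ := hodd
  rw [← hk]
  refine cnt_of_all fun χ => ?_
  have hle : Cen (uSL (1 : F)) ≤ borel2 F := fun g hg =>
    mem_borel2.2 ((mem_Cen_uSL one_ne_zero).1 hg).1
  have hc : Nat.card (Cen (uSL (1 : F))) = 2 * Nat.card F := by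
    rw [card_Cen_unip (not_Sc_uSL one_ne_zero) (by simp [SS, tr]; norm_num), card_center_of_ne h2]
  have hi : ((Cen (uSL (1 : F))).subgroupOf (borel2 F)).index = m := by
    have := ((Cen (uSL (1 : F))).subgroupOf (borel2 F)).index_mul_card
    rw [Nat.card_congr (Subgroup.subgroupOfEquivOfLe hle).toEquiv, hc, card_borel2,
      Nat.card_eq_fintype_card, hq] at this
    apply Nat.eq_of_mul_eq_mul_right (show 0 < 2 * (2 * m + 1) by omega)
    rw [this, Nat.add_sub_cancel]; ring
  have h3 := dg_eq_of_count (G := borel2 F) (a := 2 * m) (b := 4) (m := m) (by omega)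
    (by
      have := cnt_le_of_surj borel2Hom borel2Hom_surjective (G := borel2 F) (· = 1)
      rwa [cnt_one_of_comm, Nat.card_units, Nat.card_eq_fintype_card, hq, Nat.add_sub_cancel] at this)
    (fun ψ => hi ▸ dg_le_index ((Cen (uSL (1 : F))).subgroupOf (borel2 F))
      (fun x hx y hy => Subtype.ext (Cen_comm (x := x.1) (y := y.1)
        (not_Sc_uSL one_ne_zero) hx hy)) ψ)
    (by rw [card_borel2, Nat.card_eq_fintype_card, hq, Nat.add_sub_cancel]; ring) χ
  intro hd
  rw [hq] at h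
  rcases h3 with h3 | h3 <;> rw [h3] at hd
  · exact hl.one_lt.ne' (Nat.dvd_one.1 hd)
  · exact hl.one_lt.ne' (Nat.dvd_one.1 ((Nat.dvd_add_right (hd.mul_left 2)).1 h))

open Classical in
theorem normalizer_uHom :
    Subgroup.normalizer ((uHom (F := F)).range : Set SL(2, F)) = borel2 F := by
  ext g
  rw [mem_borel2]
  constructor
  · intro hg
    obtain ⟨b, hb⟩ := (Subgroup.mem_normalizer_iff.1 hg (uSL 1)).1 ⟨Multiplicative.ofAdd 1, rfl⟩
    have := congrArg (fun x : SL(2, F) => x.1 1 0) hb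
    simp only [entry_conj_uSL] at this
    simpa [uHom] using this
  · intro hg
    refine Subgroup.mem_normalizer_fintype ?_
    rintro _ ⟨b, rfl⟩
    refine ⟨Multiplicative.ofAdd (b.toAdd * g.1 0 0 ^ 2), SL_ext ?_⟩
    change _ = (g * uSL b.toAdd * g⁻¹).1
    rw [entry_conj_uSL, hg]
    simp [uHom]

theorem normalizer_sylow_char {l : ℕ} [hl : Fact l.Prime] (h : l ∣ Fintype.card F)
    (S : Sylow l SL(2, F)) :
    Nonempty (Subgroup.normalizer ((S : Subgroup SL(2, F)) : Set SL(2, F)) ≃* borel2 F) := by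
  classical
  have hinj : Function.Injective (uHom (F := F)) := fun a b e =>
    Multiplicative.toAdd.injective (uSL_injective e)
  have hc : Nat.card (uHom (F := F)).range = Fintype.card F := by
    rw [← Nat.card_congr (MonoidHom.ofInjective hinj).toEquiv, Nat.card_eq_fintype_card,
      Fintype.card_multiplicative]
  obtain ⟨p, hp⟩ := CharP.exists F
  obtain ⟨n, hpp, hn⟩ := FiniteField.card F p
  have e : l = p := (Nat.prime_dvd_prime_iff_eq hl.out hpp).1 (hl.out.dvd_of_dvd_pow (hn ▸ h))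
  subst e
  have hP : IsPGroup l (uHom (F := F)).range := IsPGroup.of_card (hc.trans hn)
  have hi : ¬ l ∣ (uHom (F := F)).range.index := by
    have h1 := (uHom (F := F)).range.index_mul_card
    have h0 : 0 < Fintype.card F := Fintype.card_pos
    rw [hc, H2.card_SL2', Nat.card_eq_fintype_card, mul_assoc, mul_comm] at h1
    rw [Nat.eq_of_mul_eq_mul_left h0 h1]
    intro hd
    rcases (Nat.Prime.dvd_mul hl.out).1 hd with hd | hd
    · have := Nat.dvd_sub h hd
      rw [show Fintype.card F - (Fintype.card F - 1) = 1 by omega] at this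
      exact hl.out.one_lt.ne' (Nat.dvd_one.1 this)
    · exact hl.out.one_lt.ne' (Nat.dvd_one.1 ((Nat.dvd_add_right h).1 hd))
  obtain ⟨t, ht⟩ := exists_le_conjS S.isPGroup' hi
  have h3 : conjS t (uHom (F := F)).range = S := S.3 (hP.map _) ht
  rw [← h3, conjS, normalizer_map_conj, normalizer_uHom]
  exact ⟨((borel2 F).equivMapOfInjective _ (MulAut.conj t).injective).symm⟩

end Cfsg.Agent.H1
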