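import Cfsg.Agent.H1.McK2

/-!
# The McKay counts for `SL₂(q)`, `q` odd: Sylow normalisers
-/

set_option autoImplicit false
set_option linter.unusedSectionVars false

namespace Cfsg.Agent.H1

open Cfsg Module Cfsg.Agent.H2 Matrix
open scoped MatrixGroups

variable {F : Type*} [Field F] [Fintype F]

theorem cnt_NC (h2 : (2 : F) ≠ 0) {z : SL(2, F)} (hz : SS z) {l : ℕ} (hl : 3 ≤ l) :
    2 * cnt (NC z) (fun d => ¬ l ∣ d) = Nat.card (Cen z) + 6 := by
  rw [← hz.card_conjClasses_NC h2, cnt_of_all]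
  intro χ hd
  have h1 := dg_le_index ((Cen z).subgroupOf (NC z))
    (fun x hx y hy => Subtype.ext (Cen_comm (x := x.1) (y := y.1) hz.not_sc hx hy)) χ
  rw [hz.index_Cen] at h1
  have := Nat.le_of_dvd (dg_pos χ) hd
  omega

section two

variable (h2 : (2 : F) ≠ 0) (S : Sylow 2 SL(2, F)) {i : SL(2, F)} (hi : tr i = 0)
  (hS : (S : Subgroup SL(2, F)) ≤ NC i)
include h2 hi hS

theorem index_syl2 : ((Cen i).subgroupOf S).index = 2 := by
  have hs := SS_of_tr_zero h2 hi
  obtain ⟨j, hj, hj'⟩ := exists_j h2 S hi hS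
  rw [Subgroup.index_eq_two_iff_exists_notMem_and]
  refine ⟨⟨j, hj⟩, hj', fun b => ?_⟩
  by_cases hb : (b : SL(2, F)) ∈ Cen i
  · exact Or.inr hb
  · exact Or.inl (hs.mul_mem (hS b.2) hb (hS hj) hj')

theorem neg_one_mem_syl2 : (-1 : SL(2, F)) ∈ S :=
  sq_eq_neg_one_of_tr hi ▸ S.pow_mem (i_mem_syl h2 S hi hS) 2

theorem cnt_syl2 : cnt S (fun d => ¬ 2 ∣ d) = 4 := by
  have hs := SS_of_tr_zero h2 hi
  have hc : ∀ x ∈ (Cen i).subgroupOf (S : Subgroup SL(2, F)),
      ∀ y ∈ (Cen i).subgroupOf (S : Subgroup SL(2, F)), x * y = y * x :=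
    fun x hx y hy => Subtype.ext (Cen_comm (x := x.1) (y := y.1) hs.not_sc hx hy)
  have e1 := cnt_one_of_index_two _ (index_syl2 h2 S hi hS) hc
  have e2 := card_conjClasses_dicyc _ (index_syl2 h2 S hi hS) hc
    (fun n hn y hy => Subtype.ext (hs.inv_of_not_mem (hS n.2) hn hy)) (by
      have hm : (-1 : SL(2, F)) ∈ Cen i := Sc.mem_Cen (isScal_SL_iff.2 (Or.inr rfl)) i
      rw [Set.ncard_eq_two]
      refine ⟨1, ⟨-1, neg_one_mem_syl2 h2 S hi hS⟩,
        fun h => neg_one_ne_one_SL h2 (congrArg Subtype.val h).symm, ?_⟩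
      ext y
      constructor
      · rintro ⟨-, h⟩
        rcases isScal_SL_iff.1 (Sc_of_sq_eq_one h2 (congrArg Subtype.val h)) with h | h
        · exact Or.inl (Subtype.ext h)
        · exact Or.inr (Subtype.ext h)
      · rintro (rfl | rfl)
        · exact ⟨one_mem _, one_pow _⟩
        · exact ⟨hm, Subtype.ext (by simp)⟩)
  have e3 := ((Cen i).subgroupOf (S : Subgroup SL(2, F))).index_mul_card
  rw [index_syl2 h2 S hi hS] at e3
  omega

theorem card_syl2 (h8 : ¬ 8 ∣ Nat.card (Cen i)) : Nat.card S = 8 := by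
  have hs := SS_of_tr_zero h2 hi
  have e3 := ((Cen i).subgroupOf (S : Subgroup SL(2, F))).index_mul_card
  rw [index_syl2 h2 S hi hS] at e3
  obtain ⟨n, hn⟩ := (S.isPGroup'.to_subgroup ((Cen i).subgroupOf S)).exists_card_eq
  have d1 : Nat.card ((Cen i).subgroupOf (S : Subgroup SL(2, F))) ∣ Nat.card (Cen i) :=
    Subgroup.card_comap_dvd_of_injective _ _ (Subgroup.subtype_injective _)
  have d2 : 4 ∣ Nat.card ((Cen i).subgroupOf (S : Subgroup SL(2, F))) := by
    have h4 : orderOf (⟨i, i_mem_syl h2 S hi hS⟩ : (S : Subgroup SL(2, F))) = 2 ^ (1 + 1) := by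
      refine orderOf_eq_prime_pow (fun h => hs.sq_ne_one ?_) (Subtype.ext (pow_four_of_tr hi))
      simpa using congrArg Subtype.val h
    have := ((Cen i).subgroupOf (S : Subgroup SL(2, F))).orderOf_dvd_natCard
      (x := ⟨i, i_mem_syl h2 S hi hS⟩) (self_mem_Cen i)
    rwa [h4] at this
  have h6 : n ≤ 2 := by
    by_contra h
    exact h8 ((pow_dvd_pow 2 (show 3 ≤ n by omega)).trans (hn ▸ d1))
  change Nat.card (S : Subgroup SL(2, F)) = 8
  rw [hn] at d2 e3
  interval_cases n <;> omega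

theorem cnt_norm_syl2 (h8 : ¬ 8 ∣ Nat.card (Cen i)) :
    cnt (Subgroup.normalizer ((S : Subgroup SL(2, F)) : Set SL(2, F))) (fun d => ¬ 2 ∣ d) = 4 := by
  have hs := SS_of_tr_zero h2 hi
  have hN := card_normalizer_syl h2 S hi hS h8
  have hS8 := card_syl2 h2 S hi hS h8
  set N := Subgroup.normalizer ((S : Subgroup SL(2, F)) : Set SL(2, F)) with hNdef
  have hle : (S : Subgroup SL(2, F)) ≤ N := Subgroup.le_normalizer
  let K := (S : Subgroup SL(2, F)).subgroupOf N
  have : K.Normal := Subgroup.normal_in_normalizer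
  have hK : Nat.card (N ⧸ K) = 3 := by
    have := K.index_mul_card
    rw [Nat.card_congr (Subgroup.subgroupOfEquivOfLe hle).toEquiv, hN] at this
    exact Nat.eq_of_mul_eq_mul_right Nat.card_pos this
  have : Fact (Nat.Prime 3) := ⟨Nat.prime_three⟩
  have : IsCyclic (N ⧸ K) := isCyclic_of_prime_card hK
  have : IsMulCommutative (N ⧸ K) := inferInstance
  refine cnt_odd_of_card_24 (by rw [hN, hS8]) (le_antisymm ?_ ?_)
  · rw [← hK, ← cnt_one_of_comm]
    refine cnt_one_le_of_ker K fun l => ?_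
    -- structure of `S`
    have ii : i⁻¹ = -i := by
      rw [inv_eq_iff_mul_eq_one, mul_neg, ← sq, sq_eq_neg_one_of_tr hi, neg_neg]
    have hiS := i_mem_syl h2 S hi hS
    have hm := neg_one_mem_syl2 h2 S hi hS
    have neg : ∀ {y}, y ∈ S → -y ∈ S := fun {y} hy => by
      have := S.mul_mem hm hy
      rwa [neg_mul, one_mul] at this
    have hT : ∀ y ∈ S, y ∈ Cen i → Sc y ∨ y = i ∨ y = -i := by
      intro y h3 h4
      by_cases h5 : Sc y
      · exact Or.inl h5
      right
      rw [← ii]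
      refine hs.eq_or_eq_inv h4 ((tr_eq_zero_of_Sc_sq h5 (Sc_of_sq_eq_one h2 ?_)).trans hi.symm)
      obtain ⟨k, hk⟩ := S.isPGroup' ⟨y, h3⟩
      obtain ⟨n, -, hn⟩ := (Nat.dvd_prime_pow Nat.prime_two).1
        (orderOf_dvd_of_pow_eq_one (congrArg Subtype.val hk : y ^ 2 ^ k = 1))
      have h6 : n ≤ 2 := by
        by_contra h
        exact h8 ((pow_dvd_pow 2 (show 3 ≤ n by omega)).trans (hn ▸ (Cen i).orderOf_dvd_natCard h4))
      rw [← pow_mul]
      exact orderOf_dvd_iff_pow_eq_one.1 (hn ▸ pow_dvd_pow 2 h6)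
    obtain ⟨j, hj, hj'⟩ := exists_j h2 S hi hS
    have hjt := hs.tr_of_not_mem (hS hj) hj'
    have jj : j * j = -1 := by rw [← sq, sq_eq_neg_one_of_tr hjt]
    have hij : j * i = -(i * j) := by
      rw [← neg_mul, ← ii, ← hs.inv_of_not_mem (hS hj) hj' (self_mem_Cen i), inv_mul_cancel_right]
    obtain ⟨w, w1, w2⟩ := exists_omega h2 hi hjt hij
    have w3 : w * (i * j) * w⁻¹ = i := by
      rw [show w * (i * j) * w⁻¹ = (w * i * w⁻¹) * (w * j * w⁻¹) by group, w1, w2, ← mul_assoc, hij,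
        neg_mul, mul_assoc, jj, mul_neg, mul_one, neg_neg]
    have all : ∀ y ∈ S, Sc y ∨ (y = i ∨ y = -i) ∨ (y = j ∨ y = -j) ∨ (y = i * j ∨ y = -(i * j)) := by
      intro y hy
      by_cases h : y ∈ Cen i
      · rcases hT y hy h with h | h
        · exact Or.inl h
        · exact Or.inr (Or.inl h)
      · have e : y = -(y * j * j) := by rw [mul_assoc, jj]; simp
        rcases hT _ (S.mul_mem hy hj) (hs.mul_mem (hS hy) h (hS hj) hj') with h | h | h
        · rcases isScal_SL_iff.1 h with h | h <;> rw [h] at e <;> simp [e]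
        · rw [h] at e; simp [e]
        · rw [h] at e; simp [e]
    have hw : w ∈ N := by
      refine Subgroup.mem_normalizer_fintype fun y hy => ?_
      rcases all y hy with h | (rfl | rfl) | (rfl | rfl) | (rfl | rfl)
      · rw [← mem_Cen.1 (h.mem_Cen w), mul_inv_cancel_right]; exact hy
      · rw [w1]; exact hj
      · rw [mul_neg, neg_mul, w1]; exact neg hj
      · rw [w2]; exact S.mul_mem hiS hj
      · rw [mul_neg, neg_mul, w2]; exact neg (S.mul_mem hiS hj)
      · rw [w3]; exact hiS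
      · rw [mul_neg, neg_mul, w3]; exact neg hiS
    let I : N := ⟨i, hle hiS⟩
    let J : N := ⟨j, hle hj⟩
    let W : N := ⟨w, hw⟩
    have cf := IsCharacter.isClassFunction (isCharacter_hom l)
    have l1 : l J = l I := by
      rw [← cf I W]; congr 1; exact Subtype.ext w1.symm
    have l2 : l I * l J = l J := by
      rw [← map_mul, ← cf J W]; congr 1; exact Subtype.ext w2.symm
    have l0 : l J ≠ 0 := fun h => by simpa [h] using hom_norm_eq_one l J
    have lI : l I = 1 := mul_right_cancel₀ l0 (by rw [l2, one_mul])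
    have lJ : l J = 1 := l1.trans lI
    have key : Subgroup.closure ({I, J} : Set N) ≤ l.ker := by
      rw [Subgroup.closure_le]
      rintro _ (rfl | rfl)
      · exact lI
      · exact lJ
    have cI : I ∈ Subgroup.closure ({I, J} : Set N) := Subgroup.subset_closure (by simp)
    have cJ : J ∈ Subgroup.closure ({I, J} : Set N) := Subgroup.subset_closure (by simp)
    intro g hg
    apply key
    have e : ∀ x : N, x ∈ Subgroup.closure ({I, J} : Set N) → x.1 = g.1 →
        g ∈ Subgroup.closure ({I, J} : Set N) := fun x hx h => (Subtype.ext h : x = g) ▸ hx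
    rcases all g.1 hg with h | (h | h) | (h | h) | (h | h)
    · rcases isScal_SL_iff.1 h with h | h
      · exact e 1 (one_mem _) h.symm
      · exact e (J * J) (mul_mem cJ cJ) (h ▸ jj)
    · exact e I cI h.symm
    · exact e I⁻¹ (inv_mem cI) (h ▸ ii)
    · exact e J cJ h.symm
    · exact e (J * J * J) (mul_mem (mul_mem cJ cJ) cJ) (by
        rw [h]; change j * j * j = _; rw [jj, neg_one_mul])
    · exact e (I * J) (mul_mem cI cJ) h.symm
    · exact e (J * I) (mul_mem cJ cI) (h ▸ hij)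
  · rw [← hK, ← cnt_one_of_comm]
    exact cnt_le_of_surj _ (QuotientGroup.mk'_surjective K) _

end two

theorem mckay_SL2 (hodd : Odd (Fintype.card F)) (l : ℕ) [hl : Fact l.Prime] (S : Sylow l SL(2, F)) :
    cnt SL(2, F) (fun d => ¬ l ∣ d) =
      cnt (Subgroup.normalizer ((S : Subgroup SL(2, F)) : Set SL(2, F))) (fun d => ¬ l ∣ d) := by
  classical
  have h2 := two_ne_zero_of_odd hodd
  have top : Subgroup.normalizer ((S : Subgroup SL(2, F)) : Set SL(2, F)) = ⊤ →
      cnt SL(2, F) (fun d => ¬ l ∣ d) =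
      cnt (Subgroup.normalizer ((S : Subgroup SL(2, F)) : Set SL(2, F))) (fun d => ¬ l ∣ d) := by
    intro h
    rw [h]
    exact (cnt_equiv Subgroup.topEquiv _).symm
  have h3 := three_le_card_of_two_ne_zero h2
  obtain ⟨m, hq⟩ := id hodd
  have hq' : Nat.card F = 2 * m + 1 := by rw [Nat.card_eq_fintype_card, hq]
  have k : ∀ a b : ℕ, l ∣ a → l ∣ b → a = b + 1 → False := fun a b ha hb e =>
    hl.out.one_lt.ne' (Nat.dvd_one.1 ((Nat.dvd_add_right hb).1 (e ▸ ha)))
  have k1 : ¬ l ∣ 1 := fun h => k 1 0 h (dvd_zero _) rfl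
  by_cases hl2 : l = 2
  · subst hl2
    obtain ⟨i, hi, hS⟩ := exists_le_NC_of_two h2 S.isPGroup'
    by_cases hm : 2 ≤ m
    · have e : cnt SL(2, F) (fun d => ¬ 2 ∣ d) = 4 := by
        rw [cnt_SL2 hq hm]
        rcases Nat.even_or_odd' m with ⟨n, rfl | rfl⟩
        · rw [if_pos, if_pos, if_neg, if_neg, if_pos, if_neg] <;> omega
        · rw [if_pos, if_pos, if_neg, if_neg, if_neg, if_pos] <;> omega
      rw [e]
      by_cases h8 : 8 ∣ Nat.card (Cen i)
      · rw [normalizer_syl_of_eight h2 S hi hS h8, cnt_syl2 h2 S hi hS]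
      · rw [cnt_norm_syl2 h2 S hi hS h8]
    · have hm1 : m = 1 := by omega
      subst hm1
      have h8 : ¬ 8 ∣ Nat.card (Cen i) := by
        rcases (SS_of_tr_zero h2 hi).card_Cen with ⟨-, h⟩ | ⟨-, h⟩ <;> omega
      apply top
      apply Subgroup.eq_top_of_card_eq
      rw [card_normalizer_syl h2 S hi hS h8, card_syl2 h2 S hi hS h8, H2.card_SL2', hq']
  have hl3 : 3 ≤ l := by
    have := hl.out.two_le
    omega
  have k2 : ¬ l ∣ 2 := fun h => by
    have := Nat.le_of_dvd (by norm_num) h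
    omega
  have c2 : ∀ a, l ∣ 2 * a ↔ l ∣ a := fun a =>
    ⟨fun h => ((Nat.Prime.dvd_mul hl.out).1 h).resolve_left k2, fun h => h.mul_left 2⟩
  by_cases ha : l ∣ Fintype.card F
  · obtain ⟨e⟩ := normalizer_sylow_char ha S
    rw [cnt_equiv e, cnt_borel2 hodd hl.out ha, cnt_SL2_char hodd hl.out ha]
  by_cases hb : l ∣ m
  · have hm : 2 ≤ m := by
      have := Nat.le_of_dvd (by omega) hb
      omega
    have hb' : ¬ l ∣ m + 1 := fun h => k _ _ h hb rfl
    obtain ⟨z, hz, h1, -, h3⟩ := sylow_odd hl2 S (Or.inl (by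
      rw [hq', Nat.add_sub_cancel]; exact hb.mul_left 2))
    have h4 := h1 ▸ (Cen z).orderOf_dvd_natCard (self_mem_Cen z)
    have h5 := (hz.card_Cen.resolve_right fun h' => hb' (by
      rw [h'.2, hq', show 2 * m + 1 + 1 = 2 * (m + 1) by ring, c2] at h4; exact h4)).2
    have h6 := cnt_NC h2 hz hl3
    rw [h3, cnt_SL2 hq hm, if_pos k1, if_pos (hq ▸ ha), if_pos, if_neg, if_pos hb', if_neg (not_not.2 hb)]
    · omega
    · exact not_not.2 (hb.mul_left 2)
    · rw [show 2 * m + 2 = 2 * (m + 1) by ring, c2]; exact hb'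
  by_cases hc : l ∣ m + 1
  · have hm : 2 ≤ m := by
      have := Nat.le_of_dvd (by omega) hc
      omega
    obtain ⟨z, hz, h1, -, h3⟩ := sylow_odd hl2 S (Or.inr (by
      rw [hq', show 2 * m + 1 + 1 = 2 * (m + 1) by ring]; exact hc.mul_left 2))
    have h4 := h1 ▸ (Cen z).orderOf_dvd_natCard (self_mem_Cen z)
    have h5 := (hz.card_Cen.resolve_left fun h' => hb (by
      rw [h'.2, hq', Nat.add_sub_cancel, c2] at h4; exact h4)).2
    have h6 := cnt_NC h2 hz hl3
    rw [h3, cnt_SL2 hq hm, if_pos k1, if_pos (hq ▸ ha), if_neg, if_pos, if_neg (not_not.2 hc), if_pos hb]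
    · omega
    · rw [c2]; exact hb
    · rw [show 2 * m + 2 = 2 * (m + 1) by ring, c2]; exact not_not.2 hc
  apply top
  have : (S : Subgroup SL(2, F)) = ⊥ := by
    obtain ⟨n, hn⟩ := S.isPGroup'.exists_card_eq
    have hd := hn ▸ (S : Subgroup SL(2, F)).card_subgroup_dvd_card
    rcases n with _ | n
    · exact Subgroup.eq_bot_of_card_eq _ (by simpa using hn)
    · exfalso
      have := (dvd_pow_self l n.succ_ne_zero).trans hd
      rw [H2.card_SL2', hq', Nat.add_sub_cancel, show 2 * m + 1 + 1 = 2 * (m + 1) by ring,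
        Nat.Prime.dvd_mul hl.out, Nat.Prime.dvd_mul hl.out, c2, c2, ← hq] at this
      tauto
  rw [this]
  exact Subgroup.normalizer_eq_top _

end Cfsg.Agent.H1
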