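import Cfsg.Agent.H1.SL2More

/-!
# Cyclic subgroups of order `q + 1` in `SL₂(q)`
-/

set_option autoImplicit false
set_option linter.unusedSectionVars false

namespace Cfsg.Agent.H1

open Cfsg Module Cfsg.Agent.H2 Matrix
open scoped ComplexConjugate MatrixGroups

variable {F : Type*} [Field F] [Fintype F] [DecidableEq F]

theorem orderOf_dvd_card_centralizer {G : Type*} [Group G] (g : G) :
    orderOf g ∣ Nat.card (Subgroup.centralizer ({g} : Set G)) := by
  have : g ∈ Subgroup.centralizer ({g} : Set G) := by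
    simp [Subgroup.mem_centralizer_singleton_iff]
  exact (Subgroup.centralizer ({g} : Set G)).orderOf_dvd_natCard this

theorem no_root_of_orderOf (h2 : (2 : F) ≠ 0) {g : SL(2, F)}
    (h : orderOf g = Fintype.card F + 1) (x : F) : x ^ 2 - g.1.trace * x + g.1.det ≠ 0 := by
  have h3 := three_le_card_of_two_ne_zero h2
  have hs : ¬ IsScal g.1 := by
    intro hs
    have : g ^ 2 = 1 := by rcases isScal_SL_iff.mp hs with rfl | rfl <;> simp
    have := Nat.le_of_dvd (by norm_num) (orderOf_dvd_of_pow_eq_one this)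
    omega
  have hd := orderOf_dvd_card_centralizer g
  rw [h] at hd
  by_cases ht : g.1.trace ^ 2 = 4
  · rw [card_centralizer_SL_unip g hs h2 ht, Nat.card_eq_fintype_card] at hd
    have := Nat.le_of_dvd (by norm_num)
      ((Nat.Coprime.dvd_mul_right (by simp : (Fintype.card F + 1).Coprime (Fintype.card F))).mp hd)
    omega
  · intro hx
    rw [card_centralizer_SL g hs (Or.inr ht), Nat.card_eq_fintype_card] at hd
    have h4 : nroots g.1.trace 1 ≠ 0 := by
      rw [g.2] at hx
      have : Nonempty {x : F // x ^ 2 - g.1.trace * x + 1 = 0} := ⟨⟨x, hx⟩⟩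
      exact Nat.card_pos.ne'
    have h5 := nroots_le_two g.1.trace (1 : F)
    have := Nat.le_of_dvd (by omega) hd
    omega

/-- a cyclic subgroup of order `q + 1` is the group of norm one elements of an embedding -/
theorem exists_quadEmb_of_cyclic {E : Type*} [Field E] [Fintype E] [DecidableEq E] [Algebra F E]
    (Q : QuadEmb F E) (h2 : (2 : F) ≠ 0) (C : Subgroup SL(2, F)) (hC : IsCyclic C)
    (hcard : Nat.card C = Fintype.card F + 1) :
    ∃ (Q' : QuadEmb F E) (j : C →* Eˣ), Function.Injective j ∧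
      (∀ c : C, Q'.ιu (j c) = sl2gl c) ∧
      ∀ ζ : Eˣ, ζ ^ (Fintype.card F + 1) = 1 → ∃ c, j c = ζ := by
  obtain ⟨c, hc⟩ := IsCyclic.exists_generator (α := C)
  have ho : orderOf c = Fintype.card F + 1 := by
    rw [orderOf_eq_card_of_forall_mem_zpowers hc, hcard]
  obtain ⟨Q', ξ, hξ⟩ := exists_quadEmb_eq Q (g := sl2gl c)
    (no_root_of_orderOf h2 (by rw [Subgroup.orderOf_coe, ho]))
  have hmem : ∀ x : C, (sl2gl.comp C.subtype) x ∈ Q'.ιu.range := by
    intro x
    obtain ⟨k, rfl⟩ := Subgroup.mem_zpowers_iff.mp (hc x)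
    rw [map_zpow]
    exact zpow_mem (MonoidHom.mem_range.mpr ⟨ξ, hξ⟩) k
  let j : C →* Eˣ := (MonoidHom.ofInjective Q'.ιu_injective).symm.toMonoidHom.comp
    ((sl2gl.comp C.subtype).codRestrict _ hmem)
  have hj : ∀ c : C, Q'.ιu (j c) = sl2gl c := fun x =>
    MonoidHom.apply_ofInjective_symm Q'.ιu_injective _
  have hinj : Function.Injective j := by
    intro a b e
    have := hj a
    rw [e, hj b] at this
    exact Subtype.ext (Matrix.SpecialLinearGroup.toGL_injective this).symm
  refine ⟨Q', j, hinj, hj, fun ζ hζ => ?_⟩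
  have hp : IsPrimitiveRoot (j c) (Fintype.card F + 1) := by
    rw [← ho, ← orderOf_injective j hinj c]
    exact IsPrimitiveRoot.orderOf _
  have : NeZero (Fintype.card F + 1) := ⟨by omega⟩
  obtain ⟨i, -, hi⟩ := hp.eq_pow_of_mem_rootsOfUnity (by rwa [mem_rootsOfUnity])
  exact ⟨c ^ i, by rw [map_pow, hi]⟩

end Cfsg.Agent.H1
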