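import Cfsg.Agent.H1.SLnBlock
import Cfsg.Agent.H1.QuadExt
import Cfsg.Agent.S2421

/-!
# Restriction from `GL_n` to `SL_n`; the character of defect zero of `SL_n`
-/

set_option autoImplicit false
set_option linter.unusedSectionVars false

namespace Cfsg.Agent.H1

open Cfsg Module Matrix Cfsg.Agent.H6
open scoped ComplexConjugate

section res

variable {F : Type*} [Field F] [Fintype F] [DecidableEq F] {ι : Type*} [Fintype ι] [DecidableEq ι]

theorem card_GL_eq_mul_card_SL [Nonempty ι] :
    Nat.card (GL ι F) = (Fintype.card F - 1) * Nat.card (SpecialLinearGroup ι F) := by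
  have h1 := (GeneralLinearGroup.det : GL ι F →* Fˣ).ker.index_mul_card
  rw [Subgroup.index_ker, MonoidHom.range_eq_top.mpr GeneralLinearGroup.det_surjective,
    Subgroup.card_top, Nat.card_units, Nat.card_eq_fintype_card (α := F)] at h1
  rw [← h1]
  congr 1
  symm
  refine Nat.card_eq_of_bijective (fun g => ⟨SpecialLinearGroup.toGL g, by
    simp [MonoidHom.mem_ker]⟩) ⟨fun a b h => SpecialLinearGroup.toGL_injective
      (congrArg Subtype.val h), ?_⟩
  rintro ⟨g, hg⟩
  exact ⟨⟨g.1, congrArg Units.val hg⟩, Subtype.ext (Units.ext rfl)⟩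

/-- characters through the determinant -/
noncomputable def detHom (γ : MulChar F ℂ) : GL ι F →* ℂ where
  toFun g := γ g.1.det
  map_one' := by simp
  map_mul' := by simp

theorem inner_res_SL [Nonempty ι] (a b : GL ι F → ℂ) :
    classInner (fun g : SpecialLinearGroup ι F => a (SpecialLinearGroup.toGL g))
      (fun g => b (SpecialLinearGroup.toGL g)) =
      ∑ γ : MulChar F ℂ, classInner (a * (detHom γ : GL ι F → ℂ)) b := by
  simp only [classInner, ← Finset.mul_sum]
  rw [Finset.sum_comm]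
  have : ∀ g : GL ι F, ∑ γ : MulChar F ℂ, (a * (detHom γ : GL ι F → ℂ)) g * conj (b g) =
      if g.1.det = 1 then ((Fintype.card F : ℂ) - 1) * (a g * conj (b g)) else 0 := by
    intro g
    simp only [Pi.mul_apply, detHom, MonoidHom.coe_mk, OneHom.coe_mk, mul_assoc, ← Finset.mul_sum,
      ← Finset.sum_mul, sum_mulChar_apply]
    split_ifs
    · ring
    · simp
  simp only [this]
  rw [← Finset.sum_filter, ← Finset.mul_sum]
  have e : ∑ g : SpecialLinearGroup ι F, a (SpecialLinearGroup.toGL g) *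
      conj (b (SpecialLinearGroup.toGL g)) =
      ∑ g ∈ Finset.univ.filter (fun g : GL ι F => g.1.det = 1), a g * conj (b g) := by
    refine Finset.sum_bij (fun g _ => SpecialLinearGroup.toGL g) (by simp)
      (fun a _ b _ h => SpecialLinearGroup.toGL_injective h) ?_ (fun _ _ => rfl)
    intro g hg
    exact ⟨⟨g.1, (Finset.mem_filter.mp hg).2⟩, Finset.mem_univ _, Units.ext rfl⟩
  rw [e, card_GL_eq_mul_card_SL, Nat.cast_mul, cast_card_sub_one]
  have h1 := card_sub_one_ne_zero (K := F)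
  have h2 := card_ne_zero' (G := SpecialLinearGroup ι F)
  field_simp

theorem exists_constituent_dvd [Nonempty ι] {ψ : GL ι F → ℂ} (hψ : IsIrrCharacter _ ψ) {d : ℕ}
    (hd : ψ 1 = d) : ∃ (χ : SpecialLinearGroup ι F → ℂ) (e : ℕ), IsIrrCharacter _ χ ∧ χ 1 = e ∧
      d ∣ (Fintype.card F - 1) * e := by
  have hres := IsCharacter.comp (IsIrrCharacter.isCharacter hψ)
    (SpecialLinearGroup.toGL : SpecialLinearGroup ι F →* GL ι F)
  obtain ⟨χ, hχ, h⟩ := IsCharacter.exists_constituent hres (fun h =>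
    IsIrrCharacter.one_ne_zero hψ (by simpa using congrFun h 1))
  obtain ⟨e, -, he⟩ := IsIrrCharacter.exists_one_eq hχ
  refine ⟨χ, e, hχ, he, ?_⟩
  obtain ⟨m, hm1, hm2, -⟩ := IsCharacter.exists_coords (IsCharacter.indHom
    (SpecialLinearGroup.toGL : SpecialLinearGroup ι F →* GL ι F) (IsIrrCharacter.isCharacter hχ))
  have h1 := congrFun hm2 1
  rw [indHom_one _ SpecialLinearGroup.toGL_injective, card_GL_eq_mul_card_SL, Nat.cast_mul,
    mul_div_cancel_right₀ _ card_ne_zero', he, Finset.sum_apply] at h1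
  have h2 : ∀ φ : IrrCharacter (GL ι F), ((m φ : ℂ) • (φ : GL ι F → ℂ)) 1 = (m φ * d : ℕ) := by
    intro φ
    by_cases hm : m φ = 0
    · simp [hm]
    have hφ := IsIrrCharacter.isCharacter φ.2
    have h3 := hm1 φ
    rw [classInner_indHom _ _ (IsCharacter.isClassFunction hφ)] at h3
    have h4 : classInner (fun g : SpecialLinearGroup ι F => (φ : GL ι F → ℂ)
        (SpecialLinearGroup.toGL g)) (fun g => ψ (SpecialLinearGroup.toGL g)) ≠ 0 := by
      have a1 := IsCharacter.comp hφ (SpecialLinearGroup.toGL : SpecialLinearGroup ι F →* GL ι F)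
      obtain ⟨a, ha1, -, -⟩ := IsCharacter.exists_coords a1
      obtain ⟨b, hb1, -, -⟩ := IsCharacter.exists_coords hres
      have : ∀ θ : IrrCharacter (SpecialLinearGroup ι F), classInner (θ : _ → ℂ)
          (fun g => ψ (SpecialLinearGroup.toGL g)) = b θ := fun θ => by
        rw [IsCharacter.classInner_comm (IsIrrCharacter.isCharacter θ.2) hres]; exact hb1 θ
      rw [IsClassFunction.classInner_eq_sum (IsCharacter.isClassFunction a1)]
      simp only [this, ha1]
      norm_cast
      rw [Finset.sum_eq_zero_iff]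
      intro h5
      rcases mul_eq_zero.mp (h5 ⟨χ, hχ⟩ (Finset.mem_univ _)) with h6 | h6
      · have := ha1 ⟨χ, hχ⟩
        rw [h6, IsCharacter.classInner_comm a1 (IsIrrCharacter.isCharacter hχ)] at this
        apply hm
        exact_mod_cast h3.symm.trans this
      · apply h
        simpa [h6] using hb1 ⟨χ, hχ⟩
    rw [inner_res_SL] at h4
    obtain ⟨γ, -, hγ⟩ := Finset.exists_ne_zero_of_sum_ne_zero h4
    have h5 : IsIrrCharacter _ ((φ : GL ι F → ℂ) * (detHom γ : GL ι F → ℂ)) := by
      apply IsCharacter.isIrr (IsCharacter.mul hφ (IsIrrCharacter.isCharacter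
        (isIrrCharacter_hom _)))
      rw [← IsIrrCharacter.classInner_self φ.2]
      simp only [classInner, Pi.mul_apply, map_mul]
      congr 1
      refine Finset.sum_congr rfl (fun g _ => ?_)
      have : detHom γ g * conj (detHom γ g) = 1 := by
        rw [Complex.mul_conj, Complex.normSq_eq_norm_sq]
        change ((‖γ _‖ ^ 2 : ℝ) : ℂ) = 1
        rw [norm_mulChar _ g.det_ne_zero]; simp
      linear_combination ((φ : GL ι F → ℂ) g * conj ((φ : GL ι F → ℂ) g)) * this
    have h6 := congrFun (IsIrrCharacter.eq_of_classInner_ne_zero h5 hψ hγ) 1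
    simp only [Pi.mul_apply, map_one, mul_one] at h6
    simp [h6, hd]
  simp only [h2] at h1
  have h3 : (Fintype.card F - 1) * e = ∑ φ, m φ * d := by exact_mod_cast h1
  rw [h3, ← Finset.sum_mul]
  exact dvd_mul_left _ _

end res

variable {F : Type*} [Field F] [Fintype F]

theorem steinberg_GL_one (n : ℕ) :
    unipotentCharacterGL n F (fun _ => 1) 1 = (Fintype.card F ^ (∑ i ∈ Finset.range n, i) : ℕ) := by
  have h := unipotentCharacterGL_one (F := F) (n := n) (fun _ => 1) (by simp)
  set q := Fintype.card F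
  have h1 : (qfact q n : ℂ) * ∏ i : Fin n, ∏ j ∈ Finset.Ioi i,
      ((qint q (1 + j.val) : ℂ) - qint q (1 + i.val)) =
      ∏ j : Fin n, ((q : ℂ) ^ (∑ s ∈ Finset.range (j + 1), s) * qfact q (1 + j.val)) := by
    rw [Finset.prod_comm' (t' := Finset.univ) (s' := fun j => Finset.Iio j) (by simp), qfact,
      Nat.cast_prod, ← Fin.prod_univ_eq_prod_range
        (fun j => ((∑ l ∈ Finset.range (j + 1), q ^ l : ℕ) : ℂ)), ← Finset.prod_mul_distrib]
    refine Finset.prod_congr rfl (fun j _ => ?_)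
    have := prod_qint_sub q (j + 1) (j + 1) le_rfl
    rw [Nat.sub_self, Finset.prod_range_succ'] at this
    rw [add_comm 1 j.val, ← this]
    simp only [qfact, Finset.range_zero, Finset.prod_empty, Nat.cast_one, mul_one]
    rw [mul_comm]
    congr 1
    · refine Finset.prod_bij (fun i _ => i.val) (by simp) (fun a _ b _ h => Fin.ext h) ?_ ?_
      · intro b hb
        exact ⟨⟨b, by have := Finset.mem_range.mp hb; omega⟩,
          by simpa [Fin.lt_def] using hb, rfl⟩
      · intro i _; rw [add_comm 1 i.val]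
    · simp [qint]
  rw [h1, Finset.prod_mul_distrib, Finset.prod_pow_eq_pow_sum, ← sum_sum_range,
    Fin.sum_univ_eq_sum_range (fun j => ∑ s ∈ Finset.range (j + 1), s)] at h
  simp only [Finset.sum_range_succ, Finset.sum_add_distrib, pow_add] at h
  have h2 : (∏ i : Fin n, (qfact q (1 + i.val) : ℂ)) ≠ 0 :=
    Finset.prod_ne_zero_iff.mpr (fun i _ => by exact_mod_cast (qfact_pos _ _).ne')
  have h3 : (q : ℂ) ≠ 0 := by exact_mod_cast Fintype.card_ne_zero
  have h4 := mul_right_cancel₀ h2 h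
  rw [mul_comm _ ((q : ℂ) ^ ∑ i ∈ Finset.range n, i)] at h4
  rw [mul_right_cancel₀ (pow_ne_zero _ h3) h4]
  simp

theorem not_dvd_qfact {p q : ℕ} (hp : p.Prime) (h : p ∣ q) (m : ℕ) : ¬ p ∣ qfact q m := by
  induction m with
  | zero => simp [qfact, hp.ne_one]
  | succ m ih =>
    rw [qfact_succ, hp.dvd_mul, not_or]
    refine ⟨ih, fun h2 => ?_⟩
    rw [add_comm, qint_add] at h2
    simp only [qint, Finset.range_one, Finset.sum_singleton, pow_zero, pow_one] at h2
    exact hp.ne_one (Nat.dvd_one.mp ((Nat.dvd_add_left (h.mul_right _)).mp h2))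

theorem char_dvd_card (p : ℕ) [hp : Fact p.Prime] [CharP F p] : p ∣ Fintype.card F := by
  obtain ⟨n, -, hn⟩ := FiniteField.card F p
  rw [hn]
  exact dvd_pow_self p n.ne_zero

theorem not_char_dvd_card_sub_one (p : ℕ) [hp : Fact p.Prime] [CharP F p] :
    ¬ p ∣ Fintype.card F - 1 := by
  intro h
  have := (Nat.dvd_sub_iff_right Fintype.card_pos (char_dvd_card (F := F) p)).mp h
  exact hp.out.ne_one (Nat.dvd_one.mp this)

theorem card_SL_eq [DecidableEq F] {n : ℕ} (hn : 0 < n) :
    Nat.card (SpecialLinearGroup (Fin n) F) = Fintype.card F ^ (∑ i ∈ Finset.range n, i) *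
      ((Fintype.card F - 1) ^ (n - 1) * qfact (Fintype.card F) n) := by
  have : Nonempty (Fin n) := ⟨⟨0, hn⟩⟩
  have h1 := card_GL_eq_qfact (F := F) (ι := Fin n)
  rw [card_GL_eq_mul_card_SL, Fintype.card_fin] at h1
  have := Fintype.one_lt_card (α := F)
  refine Nat.eq_of_mul_eq_mul_left (show 0 < Fintype.card F - 1 by omega) ?_
  rw [h1]
  conv_lhs => rw [← Nat.sub_add_cancel hn, pow_succ, Nat.sub_add_cancel hn]
  ring

theorem exists_defZero_SL (p : ℕ) [hp : Fact p.Prime] [CharP F p] [DecidableEq F] {n : ℕ}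
    (hn : 0 < n) : ∃ χ : SpecialLinearGroup (Fin n) F → ℂ, IsIrrCharacter _ χ ∧ DefZero p χ := by
  have : Nonempty (Fin n) := ⟨⟨0, hn⟩⟩
  obtain ⟨χ, e, h1, h2, h3⟩ := exists_constituent_dvd
    (S2421.result (F := F) (n := n) (fun _ => 1) monotone_const (by simp)) (steinberg_GL_one n)
  refine ⟨χ, h1, ?_⟩
  rw [DefZero, charDegree_eq h2]
  have c1 := (Nat.Prime.coprime_iff_not_dvd hp.out).mpr (not_char_dvd_card_sub_one (F := F) p)
  have c2 := (Nat.Prime.coprime_iff_not_dvd hp.out).mpr
    (not_dvd_qfact hp.out (char_dvd_card (F := F) p) n)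
  refine Nat.Coprime.dvd_of_dvd_mul_left (c1.pow_left _) (dvd_trans ?_ h3)
  refine Nat.Coprime.dvd_of_dvd_mul_right
    (((c1.pow_right (n - 1)).mul_right c2).pow_left _) ?_
  rw [← card_SL_eq hn]
  exact Nat.ordProj_dvd _ _

theorem card_defZero_SL (p : ℕ) [hp : Fact p.Prime] [CharP F p] [DecidableEq F] {n : ℕ}
    (hn : 0 < n) : Nat.card {χ : IrrCharacter (SpecialLinearGroup (Fin n) F) //
      DefZero p (χ : SpecialLinearGroup (Fin n) F → ℂ)} = 1 := by
  obtain ⟨χ, h1, h2⟩ := exists_defZero_SL (F := F) p hn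
  obtain ⟨D, hD⟩ := exists_splitData_SL (F := F) hn
  rw [Nat.card_eq_one_iff_exists]
  refine ⟨⟨⟨χ, h1⟩, h2⟩, fun ψ => Subtype.ext (Subtype.ext ?_)⟩
  exact D.defZero_unique (hD ▸ isPGroup_radSL _) ψ.1.2 h1 ψ.2 h2

end Cfsg.Agent.H1
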